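import Cfsg.Agent.TTLink.QuadSearch

/-!
Twins in the space of 126 points for the reflections used to generate the groups.
-/

set_option autoImplicit false
set_option maxRecDepth 100000

namespace Cfsg.Agent.TTLink.Quad

open Cfsg.Agent.TTLink.QuadData Cfsg.Agent.SchurBound

/-- The centres whose reflections are used. -/
def needL : List ℕ := 18 :: (usedL ++ (List.range 45).map lk)

theorem need_lt : (needL.all fun c => Nat.blt c 126) = true := by decide +kernel

theorem need_twin_ok : (needL.all fun c => allN (fun k => g126 c k ||
    (Nat.blt (rmv c k) 126 && allN (fun l => g126 c l || Nat.beq l k || Nat.beq l (rmv c k) ||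
      !(Nat.beq (Nat.land (nM c) (nM l)) (Nat.land (nM c) (nM k)))) 126)) 126) = true := by
  decide +kernel

/-- No point but the base point looks like the base point from its neighbours. -/
theorem base_seen : allN (fun k => Nat.beq k 18 ||
    ((List.range 45).any fun i => g126 (lk i) k != g126 18 k)) 126 = true := by
  decide +kernel

end Cfsg.Agent.TTLink.Quad
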