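import Cfsg.Agent.TTLink.QuadGrp.Ker
import Cfsg.Agent.TTLink.QuadGrp.Twin

/-!
The action of the centraliser on the 126 factorisations; the members act as tabulated reflections.
-/

set_option autoImplicit false

namespace Cfsg.Agent.TTLink.Quad.Grp

open Cfsg.Agent.ThreeTransp45 Cfsg.Agent.SporB Equiv Cfsg.Agent.SchurBound

variable {G : Type*} [Group G] [Finite G] {D : Set G} {z : G} {ψ : G → ℕ}
variable (S : Space D z) (hψ : Chart D z ψ)

/-- The permutations of the points induced by the centraliser. -/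
def IsAct (D : Set G) (z : G) (ψ : G → ℕ)
    (Φ : ↥(Subgroup.centralizer ({z} : Set G)) →* Perm (Fin 126)) : Prop :=
  ∀ g y, InQ D z y → ∀ k : Fin 126, (k : ℕ) = ψ y → (Φ g k : ℕ) = ψ (cj (g : G) y)

include S hψ in
theorem exists_act : ∃ Φ, IsAct D z ψ Φ := by
  classical
  choose rep hrep hrepψ using fun k : Fin 126 => hψ.surj k k.2
  set C := Subgroup.centralizer ({z} : Set G)
  have hc : ∀ g : ↥C, Commute (g : G) z := fun g => Subgroup.mem_centralizer_singleton_iff.1 g.2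
  let σ : ↥C → Fin 126 → Fin 126 := fun g k =>
    ⟨ψ (cj (g : G) (rep k)), hψ.lt _ (S.inQ_cj (hc g) (hrep k))⟩
  have key : ∀ (g : ↥C) y, InQ D z y → ∀ k : Fin 126, (k : ℕ) = ψ y →
      (σ g k : ℕ) = ψ (cj (g : G) y) := fun g y hy k hk =>
    (hψ.same _ _ (S.inQ_cj (hc g) (hrep k)) (S.inQ_cj (hc g) hy)).1
      (S.same_cj (hc g) ((hψ.same _ _ (hrep k) hy).2 ((hrepψ k).trans hk)))
  have hmul : ∀ g g' k, σ (g * g') k = σ g (σ g' k) := fun g g' k => Fin.ext (by
    rw [key g (cj (g' : G) (rep k)) (S.inQ_cj (hc g') (hrep k)) _ rfl]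
    show ψ (cj ((g * g' : ↥C) : G) (rep k)) = _
    rw [Subgroup.coe_mul, cj_mul])
  have hone : ∀ k, σ 1 k = k := fun k => Fin.ext (by
    show ψ (cj ((1 : ↥C) : G) (rep k)) = _
    rw [Subgroup.coe_one, cj_one, hrepψ])
  exact ⟨MonoidHom.mk' (fun g => ⟨σ g, σ g⁻¹, fun k => by rw [← hmul, inv_mul_cancel, hone],
    fun k => by rw [← hmul, mul_inv_cancel, hone]⟩) fun g g' => Equiv.ext (hmul g g'), key⟩

variable {Φ : ↥(Subgroup.centralizer ({z} : Set G)) →* Perm (Fin 126)} (hΦ : IsAct D z ψ Φ)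
include S hψ hΦ

theorem act_adj : Φ.range ≤ adj126 := by
  rintro _ ⟨g, rfl⟩
  intro a b
  have hg : Commute (g : G) z := Subgroup.mem_centralizer_singleton_iff.1 g.2
  obtain ⟨x, hx, hxa⟩ := hψ.surj a a.2
  obtain ⟨y, hy, hyb⟩ := hψ.surj b b.2
  rw [hΦ g x hx a hxa.symm, hΦ g y hy b hyb.symm, Bool.eq_iff_iff, ← hxa, ← hyb,
    ← hψ.adj _ _ (S.inQ_cj hg hx) (S.inQ_cj hg hy), ← hψ.adj _ _ hx hy, cj_commute_iff]

theorem act_ker : Φ.ker = (keep S).subgroupOf (Subgroup.centralizer ({z} : Set G)) := by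
  ext g
  have hg : Commute (g : G) z := Subgroup.mem_centralizer_singleton_iff.1 g.2
  rw [MonoidHom.mem_ker, Subgroup.mem_subgroupOf, mem_keep]
  constructor
  · refine fun h => ⟨hg, fun y hy => ?_⟩
    have h' := hΦ g y hy ⟨ψ y, hψ.lt y hy⟩ rfl
    rw [h] at h'
    exact (hψ.same _ _ hy (S.inQ_cj hg hy)).2 h'
  · rintro ⟨-, h⟩
    refine Equiv.ext fun k => Fin.ext ?_
    obtain ⟨y, hy, hyk⟩ := hψ.surj k k.2
    rw [hΦ g y hy k hyk.symm, ← (hψ.same _ _ hy (S.inQ_cj hg hy)).1 (h y hy)]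
    exact hyk

/-- A member with a checked value acts as the tabulated reflection. -/
theorem act_refl {g : ↥(Subgroup.centralizer ({z} : Set G))} {y : G} (hgy : (g : G) = y)
    (hy : InQ D z y) (hneed : ψ y ∈ needL) : Φ g = SUSixU43.tvP (ψ y) := by
  refine Equiv.ext fun k => Fin.ext ?_
  have hc := hψ.lt y hy
  obtain ⟨w, hw, hwk⟩ := hψ.surj k k.2
  rw [hΦ g w hw k hwk.symm, hgy, SUSixU43.tvP_apply hc]
  have h1 := allN_iff (allN_iff g126_ok (ψ y) hc) (k : ℕ) k.2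
  by_cases h : Commute y w
  · rw [(cj_eq_self_iff y w).2 h, hwk]
    rw [show g126 (ψ y) k = true by rw [← hwk]; exact (hψ.adj y w hy hw).1 h, beq_iff_eq] at h1
    exact (Nat.eq_of_beq_eq_true h1.symm).symm
  · have hgk : g126 (ψ y) k = false := Bool.eq_false_iff.2 fun e =>
      h ((hψ.adj y w hy hw).2 (hwk.symm ▸ e))
    have hu := S.inQ_refl hy hw
    have hl := hψ.lt _ hu
    have hgl : g126 (ψ y) (ψ (cj y w)) = false := Bool.eq_false_iff.2 fun e =>
      S.data.not_commute_third hy.1 hw.1 h ((hψ.adj y _ hy hu).2 e)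
    have hne : ψ (cj y w) ≠ k := fun e => by
      refine S.data.not_commute_third hw.1 hy.1 (fun hc' => h hc'.symm) ?_
      rw [← S.data.cj_comm hy.1 hw.1 h]
      exact ((hψ.same _ _ hu hw).2 (e.trans hwk.symm)).commute.symm
    have h2 := allN_iff (List.all_eq_true.1 need_twin_ok _ hneed) (k : ℕ) k.2
    rw [hgk, Bool.false_or, Bool.and_eq_true] at h2
    have h3 := allN_iff h2.2 (ψ (cj y w)) hl
    have heq : Nat.land (nM (ψ y)) (nM (ψ (cj y w))) = Nat.land (nM (ψ y)) (nM k) := by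
      refine nM_eq_of fun j hj => ?_
      obtain ⟨r, hr, hrj⟩ := hψ.surj j hj
      by_cases hyr : g126 (ψ y) j = true
      · rw [hyr, Bool.true_and, Bool.true_and, Bool.eq_iff_iff, ← hwk, ← hrj, ← hψ.adj _ _ hu hr,
          ← hψ.adj _ _ hw hr, S.comm_refl_iff hy,
          (cj_eq_self_iff y r).2 ((hψ.adj y r hy hr).2 (hrj.symm ▸ hyr))]
      · rw [Bool.eq_false_iff.2 hyr, Bool.false_and, Bool.false_and]
    simp only [hgl, heq, Bool.false_or, Bool.or_eq_true, Nat.beq_eq, Bool.not_eq_true'] at h3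
    rcases h3 with (e | e) | e
    · exact absurd e hne
    · exact e
    · simp [Nat.beq_refl] at e

end Cfsg.Agent.TTLink.Quad.Grp
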