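import Cfsg.Agent.TTLink.UnitaryConfig

/-!
A 2-element of `PSU(6,2)` commuting with the transvections orthogonal to an isotropic point is
trivial or the transvection of the point.
-/

set_option autoImplicit false

namespace Cfsg.Agent.TTLink.UnitarySix

open Cfsg.Agent.TTClass.UnitF4

variable {F : Type} [Field F] [Fintype F] (hF : Fintype.card F = 4)
include hF

/-- A vector orthogonal to `p` and to the isotropic vectors orthogonal to `p` is on `p`. -/
theorem perp_iso_span {p w : Fin 6 → F} (hp : H p p = 0) (hwp : H w p = 0)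
    (h : ∀ q : Fin 6 → F, H q q = 0 → q ≠ 0 → H q p = 0 → H w q = 0) : ∃ c : F, w = c • p := by
  by_contra hne
  push Not at hne
  have hnm : w ∉ Submodule.span F ({p} : Set (Fin 6 → F)) := fun hm => by
    obtain ⟨c, hc⟩ := Submodule.mem_span_singleton.1 hm
    exact hne c hc.symm
  rcases h_self hF w with hww | hww
  · obtain ⟨d, hd, hdp, hdw⟩ := exists_isotropic_dual hF hww hwp hnm
    have hd0 : d ≠ 0 := fun e => by rw [e, h_zero_left] at hdw; exact zero_ne_one hdw
    have := h d hd hd0 hdp
    rw [h_symm hF d w, hdw, one_pow] at this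
    exact one_ne_zero this
  · obtain ⟨r, hr, hrp, -, hrs⟩ := off_line hF hp hp
    have hrn : r ∉ Submodule.span F ({p} : Set (Fin 6 → F)) := by simpa using hrs
    have hr0 : r ≠ 0 := fun e => hrn (e ▸ Submodule.zero_mem _)
    obtain ⟨d, hd, hdp, hdr⟩ := exists_isotropic_dual hF hr hrp hrn
    have hd0 : d ≠ 0 := fun e => by rw [e, h_zero_left] at hdr; exact zero_ne_one hdr
    have hwr := h r hr hr0 hrp
    have hwd := h d hd hd0 hdp
    obtain ⟨o, ho⟩ := exists_omega hF
    set u := r + o • d with hu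
    have hrd : H r d = 1 := by rw [h_symm hF d r, hdr, one_pow]
    have huu : H u u = 1 := by
      rw [hu, h_add_left, h_add_right hF, h_add_right hF, h_smul_left, h_smul_left, h_smul_right,
        h_smul_right, hr, hd, hdr, hrd]
      linear_combination ho - two_eq_zero hF
    have huw : H u w = 0 := by
      have h1 : H r w = 0 := by rw [h_symm hF w r, hwr]; simp
      have h2 : H d w = 0 := by rw [h_symm hF w d, hwd]; simp
      rw [hu, h_add_left, h_smul_left, h1, h2]; simp
    have hwu : H w u = 0 := by rw [h_symm hF u w, huw]; simp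
    have hup : H u p = 0 := by rw [hu, h_add_left, h_smul_left, hrp, hdp]; simp
    clear_value u
    have hq : H (w + u) (w + u) = 0 := by
      rw [h_add_left, h_add_right hF, h_add_right hF, hww, huu, huw, hwu]
      linear_combination two_eq_zero hF
    have hq1 : H w (w + u) = 1 := by rw [h_add_right hF, hww, hwu, add_zero]
    have hq0 : w + u ≠ 0 := fun e => by
      have e2 : H (w + u) w = 1 := by rw [h_add_left, hww, huw, add_zero]
      rw [e, h_zero_left] at e2
      exact zero_ne_one e2
    have := h (w + u) hq hq0 (by rw [h_add_left, hwp, hup, add_zero])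
    rw [hq1] at this
    exact one_ne_zero this

/-- An element fixing the isotropic vectors orthogonal to `p` and one other is trivial. -/
theorem eq_one_of_fix_perp {p r : Fin 6 → F} (hp : H p p = 0) (hrp : H r p = 1) (hp0 : p ≠ 0)
    {g : ↥(Cfsg.SU 6 F 2)} (hfix : ∀ q : Fin 6 → F, H q q = 0 → q ≠ 0 → H q p = 0 → act g q = q)
    (hgr : act g r = r) : g = 1 := by
  refine act_ext fun x => ?_
  rw [act_one]
  have hgp := hfix p hp hp0 hp
  set w := act g x - x with hw
  have key : ∀ v, act g v = v → H w v = 0 := fun v hv => by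
    have e : H (act g x) v = H x v := by nth_rewrite 1 [← hv]; exact act_iso g x v
    have : H w v + H x v = H (act g x) v := by rw [← h_add_left, hw, sub_add_cancel]
    linear_combination this + e
  obtain ⟨c, hc⟩ := perp_iso_span hF hp (key p hgp) fun q h1 h2 h3 => key q (hfix q h1 h2 h3)
  have h1 := key r hgr
  rw [hc, h_smul_left, h_symm hF r p, hrp, one_pow, mul_one] at h1
  rw [h1, zero_smul] at hc
  exact sub_eq_zero.1 hc

/-- The 2-elements centralising the transvections orthogonal to `p`. -/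
theorem centraliser_perp {p : Fin 6 → F} (hp : H p p = 0) (hp0 : p ≠ 0) {g : Cfsg.PSU 6 F 2} {n : ℕ}
    (hg : g ^ 2 ^ n = 1)
    (h : ∀ q : Fin 6 → F, H q q = 0 → q ≠ 0 → H q p = 0 → Commute g (tt hF q)) :
    g = 1 ∨ g = tt hF p := by
  suffices key : g ^ 3 = 1 ∨ g ^ 3 = tt hF p by
    rcases key with e | e
    · left
      have := (pow_gcd_eq_one (a := g) (m := 2 ^ n) (n := 3)).2 ⟨hg, e⟩
      rwa [show Nat.gcd (2 ^ n) 3 = 1 from Nat.Coprime.pow_left n (by norm_num), pow_one] at this
    · right
      have h6 : g ^ 6 = 1 := by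
        refine (pow_mul g 3 2).trans ?_
        rw [e, pow_two, tt_eq hF hp, ← map_mul, tSU_sq hF p hp, map_one]
      have h2 : g ^ Nat.gcd (2 ^ n) 6 = 1 := pow_gcd_eq_one.2 ⟨hg, h6⟩
      have hd : Nat.gcd (2 ^ n) 6 ∣ 2 := by
        rcases n with _ | n
        · simp
        · rw [pow_succ', show 6 = 2 * 3 from rfl, Nat.gcd_mul_left,
            Nat.Coprime.pow_left n (by norm_num : Nat.Coprime 2 3)]
      obtain ⟨k, hk⟩ := hd
      have hsq : g ^ 2 = 1 := (congrArg (g ^ ·) hk).trans ((pow_mul g _ k).trans (by rw [h2, one_pow]))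
      rw [← e, pow_succ, hsq, one_mul]
  obtain ⟨g₀, rfl⟩ := QuotientGroup.mk_surjective g
  set t := g₀ ^ 3 with ht
  have htn : t ^ 2 ^ n = 1 := by
    rw [ht, ← pow_mul, mul_comm, pow_mul]
    exact cube_center hF ((QuotientGroup.eq_one_iff _).1 (by rw [QuotientGroup.mk_pow]; exact hg))
  have hcomm : ∀ q : Fin 6 → F, H q q = 0 → q ≠ 0 → H q p = 0 →
      Commute (t : Cfsg.PSU 6 F 2) (tt hF q) := fun q h1 h2 h3 => by
    rw [ht, QuotientGroup.mk_pow]
    exact (h q h1 h2 h3).pow_left 3
  have hfix : ∀ q : Fin 6 → F, H q q = 0 → q ≠ 0 → H q p = 0 → act t q = q := by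
    intro q hq hq0 hqp
    have hc : H (act t q) (act t q) = 0 := by rw [act_iso, hq]
    have h0 : act t q ≠ 0 := fun e => hq0 (act_injective t (e.trans (act_zero t).symm))
    have e : t * tSU hF q hq * t⁻¹ = tSU hF (act t q) hc :=
      act_ext fun x => by rw [conj_tv hF t (act_tSU hF q hq), act_tSU]
    obtain ⟨c, hcq⟩ := tt_inj hF hq hq0 hc h0 (by
      rw [tt_eq hF hc, ← e, map_mul, map_mul, map_inv, ← tt_eq hF hq]
      show tt hF q = (t : Cfsg.PSU 6 F 2) * tt hF q * (t : Cfsg.PSU 6 F 2)⁻¹
      rw [(hcomm q hq hq0 hqp).eq, mul_inv_cancel_right])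
    have hk : ∀ k : ℕ, act (t ^ k) q = c ^ k • q := fun k => by
      induction k with
      | zero => rw [pow_zero, act_one, pow_zero, one_smul]
      | succ k ih => rw [pow_succ, act_mul, hcq, act_smul, ih, smul_smul, pow_succ']
    have hcn : c ^ 2 ^ n = 1 := by
      have := hk (2 ^ n)
      rw [htn, act_one] at this
      by_contra hne
      have h2 : (c ^ 2 ^ n - 1) • q = 0 := by rw [sub_smul, one_smul, ← this, sub_self]
      exact hq0 ((smul_eq_zero.1 h2).resolve_left (sub_ne_zero.2 hne))
    have hc0 : c ≠ 0 := fun e0 => h0 (by rw [hcq, e0, zero_smul])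
    have := (pow_gcd_eq_one (a := c) (m := 2 ^ n) (n := 3)).2 ⟨hcn, cube hF hc0⟩
    rw [show Nat.gcd (2 ^ n) 3 = 1 from Nat.Coprime.pow_left n (by norm_num), pow_one] at this
    rw [hcq, this, one_smul]
  obtain ⟨r, hr, -, hrp⟩ := exists_isotropic_dual hF (p := 0) hp
    (by simpa using h_smul_right (0 : F) p p) (by simpa using hp0)
  have hgp := hfix p hp hp0 hp
  set w := act t r - r with hw
  have key : ∀ v, act t v = v → H w v = 0 := fun v hv => by
    have e : H (act t r) v = H r v := by nth_rewrite 1 [← hv]; exact act_iso t r v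
    have : H w v + H r v = H (act t r) v := by rw [← h_add_left, hw, sub_add_cancel]
    linear_combination this + e
  obtain ⟨c, hc⟩ := perp_iso_span hF hp (key p hgp) fun q h1 h2 h3 => key q (hfix q h1 h2 h3)
  have hv : act t r = r + c • p := by rw [← hc, hw, add_sub_cancel]
  have hpr : H p r = 1 := by rw [h_symm hF r p, hrp, one_pow]
  have hc2 : c = 0 ∨ c = 1 := by
    have h1 : H (r + c • p) (r + c • p) = 0 := by rw [← hv, act_iso, hr]
    rw [h_add_left, h_add_right hF, h_add_right hF, h_smul_left, h_smul_left, h_smul_right,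
      h_smul_right, hr, hp, hpr, hrp] at h1
    exact sq_eq_self hF (by linear_combination h1 - c * two_eq_zero hF)
  have hcube : ((g₀ : Cfsg.PSU 6 F 2)) ^ 3 = (t : Cfsg.PSU 6 F 2) := by rw [ht, QuotientGroup.mk_pow]
  rw [hcube]
  rcases hc2 with rfl | rfl
  · left
    rw [eq_one_of_fix_perp hF hp hrp hp0 hfix (by rw [hv, zero_smul, add_zero]), QuotientGroup.mk_one]
  · right
    have e := eq_one_of_fix_perp hF hp hrp hp0 (g := tSU hF p hp * t)
      (fun q h1 h2 h3 => by rw [act_mul, hfix q h1 h2 h3, act_tSU, h3, zero_smul, add_zero])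
      (by rw [act_mul, hv, one_smul, act_tSU, h_add_left, hrp, hp, add_zero, one_smul, add_assoc,
        vadd_self hF, add_zero])
    rw [tt_eq hF hp, ← inv_eq_of_mul_eq_one_right e, tSU_inv hF p hp]
    rfl

end Cfsg.Agent.TTLink.UnitarySix
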