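import Cfsg.Agent.TTLink.QuadGrp.Act
import Cfsg.Agent.TTLink.QuadGrp.Perp
import Cfsg.Agent.TTLink.M24Triple

/-!
The kernel of the action on the factorisations and its normal subgroup of order `2^13`.
-/

set_option autoImplicit false

namespace Cfsg.Agent.TTLink.Quad.Grp

open Cfsg.Agent.ThreeTransp45 Cfsg.Agent.SporB Equiv Cfsg.Agent.SchurBound

universe u

variable {G : Type u} [Group G] [Finite G] {D : Set G} {z : G}

/-- All the data on one product of four. -/
structure Setup (D : Set G) (z : G) : Type u where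
  P : M24Prim D
  S : Space D z
  ψ : G → ℕ
  hψ : Chart D z ψ
  Φ : ↥(Subgroup.centralizer ({z} : Set G)) →* Perm (Fin 126)
  hΦ : IsAct D z ψ Φ
  f : Fin 4 → G
  hf : Q4 D z f
  base : ψ (f 0) = 18
  θ : ↥(keep S) →* Perm (Fin 4)
  hθ : ∀ (k : ↥(keep S)) (i : Fin 4), cj (k : G) (f i) = f (θ k i)
  aut : Nat.card adj126 ≤ 13063680
  linkGrp : 51840 ≤ Nat.card (Subgroup.closure
    ({τ | τ = SUSixU43.tvP 18 ∨ ∃ i < 45, τ = SUSixU43.tvP (lk i)} : Set (Perm (Fin 126))))
  swap : ∀ {a b c e g : G}, IsQuad D z [a, b, c, e] → Commute g z → cj g a = b → cj g b = a →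
    cj g c = c → cj g e = e → (∀ y, Nbr D z a y → Same D z y (cj g y)) → False

theorem cz_commute {g : G} (h : g ∈ Subgroup.centralizer ({z} : Set G)) : Commute g z :=
  Subgroup.mem_centralizer_singleton_iff.1 h

theorem mem_cz {g : G} (h : Commute g z) : g ∈ Subgroup.centralizer ({z} : Set G) :=
  Subgroup.mem_centralizer_singleton_iff.2 h.eq

variable (U : Setup D z)
include U

theorem Setup.no_swap (k : ↥(keep U.S)) (i j : Fin 4) (hij : i ≠ j) : U.θ k ≠ Equiv.swap i j := by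
  intro e
  obtain ⟨σ, h0, h1⟩ := four_swap_reps i j hij
  have hq : IsQuad D z [U.f (σ 0), U.f (σ 1), U.f (σ 2), U.f (σ 3)] := U.hf.comp σ
  have hne : ∀ {l : Fin 4}, l ≠ 0 → l ≠ 1 → σ l ≠ i ∧ σ l ≠ j := fun {l} a b =>
    ⟨h0 ▸ σ.injective.ne a, h1 ▸ σ.injective.ne b⟩
  refine U.swap hq k.2.1 ?_ ?_ ?_ ?_ fun y hy => k.2.2 y hy.1
  · rw [U.hθ, e, h0, Equiv.swap_apply_left, h1]
  · rw [U.hθ, e, h1, Equiv.swap_apply_right, h0]
  · rw [U.hθ, e, Equiv.swap_apply_of_ne_of_ne (hne (by decide) (by decide)).1 (hne (by decide) (by decide)).2]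
  · rw [U.hθ, e, Equiv.swap_apply_of_ne_of_ne (hne (by decide) (by decide)).1 (hne (by decide) (by decide)).2]

theorem Setup.range_no_swap (i j : Fin 4) (hij : i ≠ j) : Equiv.swap i j ∉ U.θ.range :=
  fun ⟨k, hk⟩ => U.no_swap k i j hij hk

theorem Setup.ker_map : U.θ.ker.map (keep U.S).subtype = keep U.S ⊓ stab4 U.f := by
  ext g
  constructor
  · rintro ⟨k, hk, rfl⟩
    exact ⟨k.2, mem_stab4.2 fun i => by
      rw [Subgroup.coe_subtype, U.hθ, MonoidHom.mem_ker.1 hk, Perm.one_apply]⟩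
  · rintro ⟨h1, h2⟩
    refine ⟨⟨g, h1⟩, Equiv.ext fun i => U.hf.inj ?_, rfl⟩
    rw [← U.hθ, Perm.one_apply]
    exact mem_stab4.1 h2 i

theorem Setup.card_cz' :
    Nat.card ↥(Subgroup.centralizer ({z} : Set G)) = 321052999680 := by
  rw [card_cz U.S U.P U.hf, ncard_inQ U.S U.hψ]

/-- The orders of the kernel, of its action on one factorisation and of the image. -/
theorem Setup.counts : Nat.card (keep U.S) = 24576 ∧ Nat.card U.θ.range = 12 ∧
    Nat.card U.θ.ker = 2048 ∧ Nat.card U.Φ.range = 13063680 := by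
  set C := Subgroup.centralizer ({z} : Set G)
  have hI : Nat.card U.Φ.range ≤ 13063680 :=
    (Subgroup.card_le_of_le (act_adj U.S U.hψ U.hΦ)).trans U.aut
  have hK : Nat.card U.Φ.ker * Nat.card U.Φ.range = 321052999680 := by
    rw [← U.card_cz', ← Subgroup.index_ker, Subgroup.card_mul_index]
  rw [act_ker U.S U.hψ U.hΦ, Nat.card_congr (Subgroup.subgroupOfEquivOfLe (keep_le U.S)).toEquiv] at hK
  have hk : Nat.card U.θ.ker * Nat.card U.θ.range = Nat.card (keep U.S) := by
    rw [← Subgroup.index_ker, Subgroup.card_mul_index]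
  have hle : stab4 U.f ≤ C := fun g hg => mem_cz (stab4_commute U.hf hg)
  let Ψ := U.Φ.comp (Subgroup.inclusion hle)
  have hΨ : Nat.card Ψ.ker * Nat.card Ψ.range = 106168320 := by
    rw [← stab4_card U.P U.hf, ← Subgroup.index_ker, Subgroup.card_mul_index]
  have hker : Nat.card Ψ.ker = Nat.card U.θ.ker := by
    have e : Ψ.ker = (keep U.S ⊓ stab4 U.f).subgroupOf (stab4 U.f) := by
      ext g
      rw [MonoidHom.mem_ker, MonoidHom.comp_apply, ← MonoidHom.mem_ker, act_ker U.S U.hψ U.hΦ,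
        Subgroup.mem_subgroupOf, Subgroup.mem_subgroupOf, Subgroup.mem_inf]
      exact ⟨fun h => ⟨h, g.2⟩, fun h => h.1⟩
    rw [e, Nat.card_congr (Subgroup.subgroupOfEquivOfLe inf_le_right).toEquiv, ← U.ker_map,
      Nat.card_congr ((U.θ.ker.equivMapOfInjective _ (keep U.S).subtype_injective)).toEquiv]
  have hlink : 51840 ≤ Nat.card Ψ.range := by
    refine U.linkGrp.trans (Subgroup.card_le_of_le ((Subgroup.closure_le _).2 ?_))
    have hx : InQ D z (U.f 0) := U.hf.inQ 0
    rintro τ (rfl | ⟨i, hi, rfl⟩)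
    · have hst : U.f 0 ∈ stab4 U.f := mem_stab4.2 fun j => (cj_eq_self_iff _ _).2 (U.hf.same 0 j).commute
      refine ⟨⟨U.f 0, hst⟩, ?_⟩
      show U.Φ _ = _
      rw [act_refl U.S U.hψ U.hΦ (y := U.f 0) rfl hx (by rw [U.base]; simp [needL]), U.base]
    · have hok := allN_iff link_ok i hi
      simp only [Bool.and_eq_true, Nat.blt_eq] at hok
      obtain ⟨y, hy, hyi⟩ := U.hψ.surj (lk i) hok.1.1.1
      have hc : Commute (U.f 0) y := (U.hψ.adj _ _ hx hy).2 (by rw [U.base, hyi]; exact hok.1.1.2)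
      have hst : y ∈ stab4 U.f := mem_stab4.2 fun j =>
        (cj_eq_self_iff _ _).2 (U.S.comm_congr (U.hf.same 0 j) hy hc).symm
      refine ⟨⟨y, hst⟩, ?_⟩
      show U.Φ _ = _
      rw [act_refl U.S U.hψ U.hΦ (y := y) rfl hy (by
        rw [hyi]; exact List.mem_cons_of_mem _ (List.mem_append_right _
          (List.mem_map_of_mem (List.mem_range.2 hi)))), hyi]
  obtain ⟨h12, -⟩ := no_swap_card U.range_no_swap
  rw [hker] at hΨ
  have hR : Nat.card U.θ.ker ≤ 2048 := by
    have := Nat.mul_le_mul_left (Nat.card U.θ.ker) hlink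
    omega
  have hlo : 24576 ≤ Nat.card (keep U.S) := by
    have := Nat.mul_le_mul_left (Nat.card (keep U.S)) hI
    omega
  have h1 := Nat.mul_le_mul hR h12
  have h2 : Nat.card U.θ.range = 12 := by
    by_contra hne
    have := Nat.mul_le_mul hR (show Nat.card U.θ.range ≤ 11 by omega)
    omega
  rw [h2] at hk
  refine ⟨by omega, h2, by omega, ?_⟩
  rw [show Nat.card (keep U.S) = 24576 by omega] at hK
  omega

theorem Setup.range_eq : U.θ.range = alternatingGroup (Fin 4) :=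
  (no_swap_card U.range_no_swap).2 U.counts.2.1

theorem Setup.sign_eq (k : ↥(keep U.S)) : Perm.sign (U.θ k) = 1 :=
  Equiv.Perm.mem_alternatingGroup.1 (U.range_eq ▸ ⟨k, rfl⟩)

/-- The subgroup inducing at most involutions. -/
def Setup.core : Subgroup G := (fourGroup.comap U.θ).map (keep U.S).subtype

theorem Setup.core_le : U.core ≤ keep U.S := Subgroup.map_subtype_le _

theorem Setup.core_card : Nat.card U.core = 2 ^ 13 := by
  obtain ⟨hK, hr, -, -⟩ := U.counts
  have hV : fourGroup ≤ U.θ.range := fun σ hσ => U.range_eq ▸ Equiv.Perm.mem_alternatingGroup.2 hσ.1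
  have h1 := (fourGroup.comap U.θ).card_mul_index
  have h2 := (fourGroup.subgroupOf U.θ.range).card_mul_index
  rw [Subgroup.index_comap, Subgroup.relIndex, hK] at h1
  rw [Nat.card_congr (Subgroup.subgroupOfEquivOfLe hV).toEquiv, fourGroup_card, hr] at h2
  rw [Setup.core, ← Nat.card_congr ((fourGroup.comap U.θ).equivMapOfInjective _
    (keep U.S).subtype_injective).toEquiv]
  have h3 : (fourGroup.subgroupOf U.θ.range).index = 3 := by omega
  rw [h3] at h1
  omega

theorem Setup.mem_core {g : G} : g ∈ U.core ↔ g ∈ keep U.S ∧ ∃ n, g ^ 2 ^ n = 1 := by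
  constructor
  · intro hg
    refine ⟨U.core_le hg, 13, ?_⟩
    have := pow_card_eq_one' (x := (⟨g, hg⟩ : ↥U.core))
    rw [U.core_card] at this
    exact congrArg Subtype.val this
  · rintro ⟨hg, n, hn⟩
    refine ⟨⟨g, hg⟩, ?_, rfl⟩
    have hs := U.sign_eq ⟨g, hg⟩
    set σ := U.θ ⟨g, hg⟩
    have h12 : σ ^ 12 = 1 := by
      have h := pow_card_eq_one' (x := (⟨σ, ⟨⟨g, hg⟩, rfl⟩⟩ : ↥U.θ.range))
      rw [U.counts.2.1] at h
      exact congrArg Subtype.val h
    have h2n : σ ^ 2 ^ n = 1 := by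
      rw [← map_pow, show (⟨g, hg⟩ : ↥(keep U.S)) ^ 2 ^ n = 1 from Subtype.ext hn, map_one]
    refine ⟨hs, (four_facts σ hs).1 ?_⟩
    have hd : Nat.gcd (2 ^ n) 12 ∣ 4 :=
      (Nat.Coprime.dvd_mul_right (Nat.Coprime.coprime_dvd_left (Nat.gcd_dvd_left _ _)
        (Nat.Coprime.pow_left n (by norm_num : Nat.Coprime 2 3)))).1
        (show Nat.gcd (2 ^ n) 12 ∣ 4 * 3 from Nat.gcd_dvd_right _ _)
    obtain ⟨k, hk⟩ := hd
    exact (congrArg (σ ^ ·) hk).trans ((pow_mul σ _ k).trans (by rw [pow_gcd_eq_one.2 ⟨h2n, h12⟩, one_pow]))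

theorem Setup.core_conj {g h : G} (hh : Commute h z) (hg : g ∈ U.core) : h * g * h⁻¹ ∈ U.core := by
  obtain ⟨h1, n, hn⟩ := U.mem_core.1 hg
  exact U.mem_core.2 ⟨keep_conj U.S hh h1, n, by rw [conj_pow, hn, mul_one, mul_inv_cancel]⟩

/-- The core induces at most involutions, fixed point free, on every factorisation. -/
theorem Setup.core_act {g : G} (hg : g ∈ U.core) {y : G} (hy : InQ D z y) :
    cj g (cj g y) = y ∧ (cj g y = y → ∀ w, Same D z y w → cj g w = w) := by
  obtain ⟨h, hh, rfl⟩ := move_point U.S U.P (U.hf.inQ 0) hy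
  have hg' := U.core_conj hh.inv_left hg
  rw [inv_inv] at hg'
  obtain ⟨k, hk, hkg⟩ := hg'
  have hkg' : (k : G) = h⁻¹ * g * h := hkg
  obtain ⟨-, hF⟩ := four_facts _ hk.1
  have key : ∀ x, cj g (cj h x) = cj h (cj (k : G) x) := fun x => by
    rw [hkg', ← cj_mul, ← cj_mul]
    congr 1
    group
  refine ⟨?_, fun e w hw => ?_⟩
  · rw [key, key, U.hθ, U.hθ, ← Perm.mul_apply, hk.2, Perm.one_apply]
  · rw [key, U.hθ] at e
    have hfix := hF hk.2 0 (U.hf.inj (cj_injective h e))
    have hw' := U.S.same_cj hh.inv_left hw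
    rw [cj_inv_cj] at hw'
    obtain ⟨j, hj⟩ := U.hf.of_same U.S hw'
    have hwj : cj h (U.f j) = w := by rw [hj, cj_cj_inv]
    rw [← hwj, key, U.hθ, hfix]

/-- An element fixing all the members is trivial or the product. -/
theorem Setup.fixed_le {g : G} (hgz : Commute g z) (hfix : ∀ y, InQ D z y → cj g y = y) :
    g = 1 ∨ g = z := by
  classical
  set f := U.f
  have hD := U.P.data
  have hk : g ∈ keep U.S := ⟨hgz, fun y hy => by rw [hfix y hy]; exact U.S.refl hy⟩
  have hst : g ∈ stab4 f := mem_stab4.2 fun i => hfix _ (U.hf.inQ i)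
  have hp2 : g ^ 2 ^ 11 = 1 := by
    have hR : g ∈ U.θ.ker.map (keep U.S).subtype := U.ker_map ▸ ⟨hk, hst⟩
    obtain ⟨k, hk', rfl⟩ := hR
    have h := pow_card_eq_one' (x := (⟨k, hk'⟩ : ↥U.θ.ker))
    rw [U.counts.2.2.1] at h
    exact congrArg Subtype.val (congrArg Subtype.val h)
  have ne : ∀ {i j : Fin 4}, i ≠ j → f i ≠ f j := fun h e => h (U.hf.inj e)
  have com : ∀ i j : Fin 4, Commute (f i) (f j) := fun i j => (U.hf.same i j).commute
  have mD : ∀ i, f i ∈ D := fun i => (U.hf.inQ i).1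
  have lk1 : f 1 ∈ link D (f 0) := ⟨mD 1, ne (by decide), com 0 1⟩
  have lk2 : f 2 ∈ link D (f 0) := ⟨mD 2, ne (by decide), com 0 2⟩
  set K₃ := Subgroup.centralizer ({f 0, f 1, f 2} : Set G) with hK₃
  obtain ⟨F, i1, i2, hF, π, hπ, hker, -, hinj⟩ :=
    U.P.triple_proj (mD 0) lk1 lk2 (ne (by decide)) (com 1 2) K₃ hK₃
  have mem3 : ∀ {x : G}, Commute x (f 0) → Commute x (f 1) → Commute x (f 2) → x ∈ K₃ := by
    intro x h0 h1 h2
    rw [hK₃, Subgroup.mem_centralizer_iff]
    rintro y (rfl | rfl | rfl)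
    exacts [h0.eq.symm, h1.eq.symm, h2.eq.symm]
  let e3 : ↥K₃ := ⟨f 3, mem3 (com 3 0) (com 3 1) (com 3 2)⟩
  let g3 : ↥K₃ := ⟨g, mem3 ((cj_eq_self_iff g _).1 (hfix _ (U.hf.inQ 0)))
    ((cj_eq_self_iff g _).1 (hfix _ (U.hf.inQ 1))) ((cj_eq_self_iff g _).1 (hfix _ (U.hf.inQ 2)))⟩
  have n3 : f 3 ∉ [f 0, f 1, f 2] := by
    simp [ne (show (3 : Fin 4) ≠ 0 by decide), ne (show (3 : Fin 4) ≠ 1 by decide),
      ne (show (3 : Fin 4) ≠ 2 by decide)]
  set E : Set (Cfsg.PSU 6 F 2) := π '' {y | (y : G) ∈ D ∧ (y : G) ∉ [f 0, f 1, f 2]} with hE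
  have ne1 : ∀ y : ↥K₃, (y : G) ∈ D → (y : G) ∉ [f 0, f 1, f 2] → π y ≠ 1 := by
    intro y hy hyn e
    simp only [List.mem_cons, List.not_mem_nil, or_false, not_or] at hyn
    have one : Fac D [(y : G)] := ⟨by simp, by simp [hy], by simp⟩
    have two : ∀ i j, i ≠ j → (y : G) ≠ f i * f j := fun i j hij e => by
      refine U.P.len_unique_four 1 [(y : G)] [f i, f j] one
        ⟨by simp [ne hij], by simp [mD], by simp [com]⟩ rfl (by simp) (by simp) ?_
      simpa using e
    rcases (hker y).1 e with h | h | h | h | h | h | h | h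
    · exact ThreeTransp.ne_one hD.set hy h
    · exact hyn.1 h
    · exact hyn.2.1 h
    · exact two 1 0 (by decide) h
    · exact hyn.2.2 h
    · exact two 2 0 (by decide) h
    · exact two 2 1 (by decide) h
    · refine U.P.len_unique_four 1 [(y : G)] [f 2, f 1, f 0] one
        ⟨by simp [ne (show (2 : Fin 4) ≠ 1 by decide), ne (show (2 : Fin 4) ≠ 0 by decide),
          ne (show (1 : Fin 4) ≠ 0 by decide)], by simp [mD], by simp [com]⟩ rfl (by simp) (by simp) ?_
      simpa [mul_assoc] using h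
  have hEd : Data E := by
    refine ⟨⟨?_, ?_⟩, ?_⟩
    · rintro _ ⟨y, ⟨hy, hyn⟩, rfl⟩
      refine orderOf_eq_prime (p := 2) ?_ (ne1 y hy hyn)
      rw [← map_pow, show y ^ 2 = 1 from Subtype.ext (by
        rw [SubmonoidClass.coe_pow, pow_two, hD.mul_self hy]; rfl), map_one]
    · rintro _ ⟨y, ⟨hy, -⟩, rfl⟩ _ ⟨w, ⟨hw, -⟩, rfl⟩
      rcases hD.set.2 _ hy _ hw with h | h
      · left
        rw [← map_mul, ← map_pow, show (y * w) ^ 2 = 1 from Subtype.ext h, map_one]
      · right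
        rw [← map_mul, ← map_pow, show (y * w) ^ 3 = 1 from Subtype.ext h, map_one]
    · intro c _ hd
      obtain ⟨y, ⟨hy, hyn⟩, rfl⟩ := hd
      obtain ⟨k, rfl⟩ := hπ c
      refine ⟨k * y * k⁻¹, ⟨hD.inv' k y hy, fun hm => hyn ?_⟩, by simp [cj]⟩
      have hfk : ∀ x ∈ [f 0, f 1, f 2], cj (k : G) x = x := by
        intro x hx
        refine (cj_eq_self_iff _ _).2 (Subgroup.mem_centralizer_iff.1 k.2 x ?_).symm
        simpa using hx
      rw [show (y : G) = ((k * y * k⁻¹ : ↥K₃) : G) from cj_injective (k : G) (by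
        rw [hfk _ hm]; rfl)]
      exact hm
  have he3 : π e3 ∈ E := ⟨e3, ⟨mD 3, n3⟩, rfl⟩
  obtain ⟨p, hp, hp0, hpe⟩ := (UnitarySix.mem_iff hF hEd ⟨_, he3⟩ _).1 he3
  have hcomm : ∀ q : Fin 6 → F, TTClass.UnitF4.H q q = 0 → q ≠ 0 → TTClass.UnitF4.H q p = 0 →
      Commute (π g3) (UnitarySix.tt hF q) := by
    intro q h1 h2 h3
    obtain ⟨y, ⟨hy, hyn⟩, hyq⟩ := (UnitarySix.mem_iff hF hEd ⟨_, he3⟩ _).2 ⟨q, h1, h2, rfl⟩
    rw [← hyq]
    by_cases hye : (y : G) = f 3
    · rw [show y = e3 from Subtype.ext hye]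
      exact (show Commute g3 e3 from Subtype.ext ((cj_eq_self_iff g _).1 (hfix _ (U.hf.inQ 3))).eq).map π
    have hce : Commute (y : G) (f 3) := by
      by_contra hne
      refine hye (congrArg Subtype.val (hinj y e3 hy hyn (mD 3) n3 ?_))
      have hc : Commute (π y) (π e3) := by
        rw [hyq, ← hpe]
        exact UnitarySix.tt_commute hF h1 hp h3
      rcases hD.set.2 _ hy _ (mD 3) with e | e
      · exact absurd (commute_of_mul_sq (hD.mul_self hy) (hD.mul_self (mD 3)) e) hne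
      · have e' : (π y * π e3) ^ 3 = 1 := by
          rw [← map_mul, ← map_pow, show (y * e3) ^ 3 = 1 from Subtype.ext e, map_one]
        have hsq : (π y * π e3) ^ 2 = 1 := by
          rw [hc.mul_pow, pow_two, pow_two, hEd.mul_self ⟨y, ⟨hy, hyn⟩, rfl⟩, hEd.mul_self he3, one_mul]
        rw [pow_succ, hsq, one_mul] at e'
        rw [← inv_eq_of_mul_eq_one_left e', hEd.inv_eq he3]
    have hyz : InQ D z (y : G) := ⟨hy, by
      have hy3 := Subgroup.mem_centralizer_iff.1 y.2
      refine (mem_stab4 (f := f)).2 ?_ |> fun h => (stab4_commute U.hf h).symm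
      intro i
      refine (cj_eq_self_iff _ _).2 ?_
      fin_cases i
      exacts [(hy3 _ (by simp)).symm, (hy3 _ (by simp)).symm, (hy3 _ (by simp)).symm, hce]⟩
    exact (show Commute g3 y from Subtype.ext ((cj_eq_self_iff g _).1 (hfix _ hyz)).eq).map π
  have hgp : π g3 ^ 2 ^ 11 = 1 := by
    rw [← map_pow, show g3 ^ 2 ^ 11 = 1 from Subtype.ext hp2, map_one]
  have h16 : π g3 = 1 ∨ π (g3 * e3) = 1 := by
    rcases UnitarySix.centraliser_perp hF hp hp0 hgp hcomm with e | e
    · exact Or.inl e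
    · right
      rw [map_mul, e, hpe, hEd.mul_self he3]
  -- a member moved by the other factorisations
  obtain ⟨w, hw, hwk⟩ := U.hψ.surj (rp 0) (by decide +kernel)
  have hwn : ∀ i, ¬ Commute (f i) w := fun i hc => by
    have h' := U.S.comm_congr (U.hf.same i 0) hw hc
    have := (U.hψ.adj _ _ (U.hf.inQ 0) hw).1 h'
    rw [U.base, hwk] at this
    exact absurd this (by decide +kernel)
  have single : ∀ i, cj (f i) w ≠ w := fun i e => hwn i ((cj_eq_self_iff _ _).1 e)
  have double : ∀ i j, i ≠ j → cj (f i * f j) w ≠ w := by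
    intro i j hij e
    rw [cj_mul] at e
    have h' := congrArg (cj (f i)) e
    rw [hD.cj_cj (mD i), hD.cj_comm (mD j) hw.1 (hwn j), hD.cj_comm (mD i) hw.1 (hwn i)] at h'
    exact ne hij (cj_injective w h').symm
  have hzw : cj z w = w := (cj_eq_self_iff z w).2 hw.2
  have triple : ∀ i j k : Fin 4, i ≠ j → i ≠ k → j ≠ k → cj (f i * f j * f k) w ≠ w := by
    intro i j k a b c e
    obtain ⟨σ, h1, h2, h3⟩ := four_triple_reps i j k a b c
    have hp' : f (σ 0) * (f i * f j * f k) = z := by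
      have := (U.hf.comp σ).2.2
      simp only [Function.comp_apply, h1, h2, h3, List.prod_cons, List.prod_nil, mul_one] at this
      rw [← this]; simp only [mul_assoc]; rfl
    rw [← hp', cj_mul, e] at hzw
    exact single _ hzw
  have gw := hfix w hw
  have hge : ∀ {x : G}, g * f 3 = x → g = x * f 3 := fun {x} e => by
    rw [← e, mul_assoc, hD.mul_self (mD 3), mul_one]
  rcases h16 with e | e
  · rcases (hker g3).1 e with h | h | h | h | h | h | h | h <;> change g = _ at h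
    · exact Or.inl h
    all_goals exfalso; rw [h] at gw
    · exact single 0 gw
    · exact single 1 gw
    · exact double 1 0 (by decide) gw
    · exact single 2 gw
    · exact double 2 0 (by decide) gw
    · exact double 2 1 (by decide) gw
    · exact triple 2 1 0 (by decide) (by decide) (by decide) gw
  · rcases (hker (g3 * e3)).1 e with h | h | h | h | h | h | h | h <;>
      change g * f 3 = _ at h <;> have h' := hge h <;> rw [h'] at gw
    · exact absurd (by simpa using gw) (single 3)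
    · exact absurd gw (double 0 3 (by decide))
    · exact absurd gw (double 1 3 (by decide))
    · exact absurd gw (triple 1 0 3 (by decide) (by decide) (by decide))
    · exact absurd gw (double 2 3 (by decide))
    · exact absurd gw (triple 2 0 3 (by decide) (by decide) (by decide))
    · exact absurd gw (triple 2 1 3 (by decide) (by decide) (by decide))
    · right
      obtain ⟨σ, hσ⟩ : ∃ σ : Perm (Fin 4), σ 0 = 2 ∧ σ 1 = 1 ∧ σ 2 = 0 ∧ σ 3 = 3 :=
        ⟨Equiv.swap 0 2, by decide⟩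
      have := (U.hf.comp σ).2.2
      simp only [Function.comp_apply, hσ.1, hσ.2.1, hσ.2.2.1, hσ.2.2.2, List.prod_cons, List.prod_nil,
        mul_one] at this
      rw [h', ← this]
      simp [f, mul_assoc]

end Cfsg.Agent.TTLink.Quad.Grp
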