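import Cfsg.Agent.TTLink.QuadDefs
import Cfsg.Agent.TTLink.M24Quad
import Cfsg.Agent.TTLink.M24Order

/-!
The elements fixing every factorisation, their action on the members of one, and the order of the
centraliser of a product of four commuting transpositions.
-/

set_option autoImplicit false

namespace Cfsg.Agent.TTLink.Quad.Grp

open Cfsg.Agent.ThreeTransp45 Cfsg.Agent.SporB Cfsg.Agent.TTLink.PrimeFix Equiv

variable {G : Type*} [Group G] [Finite G] {D : Set G} {z : G}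

/-! ### Permutations of four letters -/

theorem four_swap_reps : ∀ i j : Fin 4, i ≠ j → ∃ σ : Perm (Fin 4), σ 0 = i ∧ σ 1 = j := by
  decide +kernel

theorem four_triple_reps : ∀ i j k : Fin 4, i ≠ j → i ≠ k → j ≠ k →
    ∃ σ : Perm (Fin 4), σ 1 = i ∧ σ 2 = j ∧ σ 3 = k := by
  decide +kernel

theorem four_facts : ∀ σ : Perm (Fin 4), Perm.sign σ = 1 →
    (σ ^ 4 = 1 → σ * σ = 1) ∧ (σ * σ = 1 → ∀ i, σ i = i → ∀ j, σ j = j) := by
  decide +kernel

/-- The normal subgroup of order four. -/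
def fourGroup : Subgroup (Perm (Fin 4)) where
  carrier := {σ | Perm.sign σ = 1 ∧ σ * σ = 1}
  mul_mem' {a b} ha hb := (show ∀ a b : Perm (Fin 4), Perm.sign a = 1 ∧ a * a = 1 →
    Perm.sign b = 1 ∧ b * b = 1 → Perm.sign (a * b) = 1 ∧ a * b * (a * b) = 1 by decide +kernel) a b ha hb
  one_mem' := ⟨map_one _, one_mul _⟩
  inv_mem' {a} ha := by
    show Perm.sign a⁻¹ = 1 ∧ a⁻¹ * a⁻¹ = 1
    rw [inv_eq_of_mul_eq_one_right ha.2]
    exact ha

theorem fourGroup_card : Nat.card fourGroup = 4 := by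
  show Nat.card {σ : Perm (Fin 4) // Perm.sign σ = 1 ∧ σ * σ = 1} = 4
  rw [Nat.card_eq_fintype_card]
  decide +kernel

theorem fourGroup_normal : fourGroup.Normal := ⟨fun a ha g =>
  (show ∀ a g : Perm (Fin 4), Perm.sign a = 1 ∧ a * a = 1 →
    Perm.sign (g * a * g⁻¹) = 1 ∧ g * a * g⁻¹ * (g * a * g⁻¹) = 1 by decide +kernel) a g ha⟩

/-- A group of permutations of four letters without transposition. -/
theorem no_swap_card {H : Subgroup (Perm (Fin 4))} (h : ∀ i j, i ≠ j → swap i j ∉ H) :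
    Nat.card H ≤ 12 ∧ (Nat.card H = 12 → H = alternatingGroup (Fin 4)) := by
  have hc : Nat.card (Perm (Fin 4)) = 24 := by rw [Nat.card_perm, Nat.card_fin]; rfl
  have hmul := H.card_mul_index
  rw [hc] at hmul
  have h1 : H.index ≠ 1 := fun e => h 0 1 (by decide) (by rw [Subgroup.index_eq_one.1 e]; trivial)
  have h0 : H.index ≠ 0 := fun e => by rw [e, mul_zero] at hmul; omega
  have h2 : 2 ≤ H.index := by omega
  refine ⟨?_, fun e => ?_⟩
  · have := Nat.mul_le_mul_left (Nat.card H) h2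
    omega
  · rw [e] at hmul
    exact Equiv.Perm.eq_alternatingGroup_of_index_eq_two (by omega)

/-! ### The elements fixing every factorisation -/

variable (S : Space D z)

/-- The elements of the centraliser fixing all factorisations. -/
def keep : Subgroup G where
  carrier := {g | Commute g z ∧ ∀ y, InQ D z y → Same D z y (cj g y)}
  one_mem' := ⟨Commute.one_left z, fun y hy => by rw [cj_one]; exact S.refl hy⟩
  mul_mem' {g h} hg hh := ⟨hg.1.mul_left hh.1, fun y hy => by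
    rw [cj_mul]
    exact S.trans (hg.2 y hy) (S.same_cj hg.1 (hh.2 y hy))⟩
  inv_mem' {g} hg := ⟨hg.1.inv_left, fun y hy => by
    have h := hg.2 _ (S.inQ_cj hg.1.inv_left hy)
    rw [cj_cj_inv] at h
    exact h.symm⟩

theorem mem_keep {g : G} : g ∈ keep S ↔ Commute g z ∧ ∀ y, InQ D z y → Same D z y (cj g y) :=
  Iff.rfl

theorem keep_conj {g h : G} (hh : Commute h z) (hg : g ∈ keep S) : h * g * h⁻¹ ∈ keep S := by
  refine ⟨(hh.mul_left hg.1).mul_left hh.inv_left, fun y hy => ?_⟩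
  have h' := S.same_cj hh (hg.2 _ (S.inQ_cj hh.inv_left hy))
  rwa [cj_cj_inv, ← cj_mul, ← cj_mul] at h'

theorem keep_le : keep S ≤ Subgroup.centralizer ({z} : Set G) := fun _ hg =>
  Subgroup.mem_centralizer_singleton_iff.2 hg.1.eq

include S in
theorem quad_mem {m : List G} (hm : IsQuad D z m) {x y : G} (hx : x ∈ m) (h : Same D z x y) :
    y ∈ m := by
  obtain ⟨m', hm', hx', hy'⟩ := h
  exact (S.uniq hm hm' hx hx' y).2 hy'

theorem pair_keep {x u : G} (h : Same D z x u) : x * u ∈ keep S := by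
  refine ⟨(h.left.2.mul_right h.right.2).symm, fun y hy => ?_⟩
  rw [cj_mul]
  by_cases hc : Commute x y
  · rw [(cj_eq_self_iff u y).2 (S.comm_congr h hy hc), (cj_eq_self_iff x y).2 hc]
    exact S.refl hy
  · have h' := S.same_refl h.left (S.refl_congr h.symm hy)
    rw [S.data.cj_cj h.left.1] at h'
    exact h'.symm

/-! ### One factorisation with an order on its members -/

/-- A factorisation listed by the four letters. -/
def Q4 (D : Set G) (z : G) (f : Fin 4 → G) : Prop := IsQuad D z [f 0, f 1, f 2, f 3]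

theorem mem_q4 (f : Fin 4 → G) (y : G) : y ∈ [f 0, f 1, f 2, f 3] ↔ ∃ i, f i = y := by
  simp [Fin.exists_fin_succ, eq_comm]

theorem Q4.inj {f : Fin 4 → G} (hf : Q4 D z f) : Function.Injective f := by
  have hn := hf.1.nodup
  simp only [List.nodup_cons, List.mem_cons, List.not_mem_nil, or_false, not_or, not_false_eq_true,
    List.nodup_nil, and_true] at hn
  obtain ⟨⟨h1, h2, h3⟩, ⟨h4, h5⟩, h6⟩ := hn
  intro i j h
  fin_cases i <;> fin_cases j <;>
    first | rfl | exact absurd h (by assumption) | exact absurd h.symm (by assumption)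

theorem Q4.same {f : Fin 4 → G} (hf : Q4 D z f) (i j : Fin 4) : Same D z (f i) (f j) :=
  ⟨_, hf, (mem_q4 f _).2 ⟨i, rfl⟩, (mem_q4 f _).2 ⟨j, rfl⟩⟩

theorem Q4.inQ {f : Fin 4 → G} (hf : Q4 D z f) (i : Fin 4) : InQ D z (f i) := (hf.same i i).left

theorem Q4.comp {f : Fin 4 → G} (hf : Q4 D z f) (σ : Perm (Fin 4)) : Q4 D z (f ∘ σ) := by
  have hn : ([f (σ 0), f (σ 1), f (σ 2), f (σ 3)]).Nodup := by
    simp [hf.inj.eq_iff]
  have hp : ([f 0, f 1, f 2, f 3]).Perm [f (σ 0), f (σ 1), f (σ 2), f (σ 3)] :=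
    (List.perm_ext_iff_of_nodup hf.1.nodup hn).2 fun y => by
      rw [mem_q4 f, show y ∈ [f (σ 0), f (σ 1), f (σ 2), f (σ 3)] ↔ ∃ i, (f ∘ σ) i = y from
        mem_q4 (f ∘ σ) y]
      exact ⟨fun ⟨i, h⟩ => ⟨σ.symm i, by simpa using h⟩, fun ⟨i, h⟩ => ⟨σ i, h⟩⟩
  refine ⟨⟨hn, fun y hy => hf.1.mem y (hp.mem_iff.2 hy),
    fun y hy w hw => hf.1.comm y (hp.mem_iff.2 hy) w (hp.mem_iff.2 hw)⟩, rfl, ?_⟩
  show [f (σ 0), f (σ 1), f (σ 2), f (σ 3)].prod = z
  rw [← fac_perm_prod hf.1.comm hp]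
  exact hf.2.2

theorem Q4.of_same {f : Fin 4 → G} (hf : Q4 D z f) (S : Space D z) {i : Fin 4} {y : G}
    (h : Same D z (f i) y) : ∃ j, f j = y :=
  (mem_q4 f y).1 (quad_mem S hf ((mem_q4 f _).2 ⟨i, rfl⟩) h)

include S in
theorem exists_q4 {x : G} (hx : InQ D z x) : ∃ f : Fin 4 → G, Q4 D z f ∧ f 0 = x := by
  classical
  obtain ⟨m, hm, hxm⟩ := S.cover x hx
  obtain ⟨u, v, w, he⟩ := List.length_eq_three.1
    (show (m.erase x).length = 3 by rw [List.length_erase_of_mem hxm, hm.2.1])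
  have hp := List.perm_cons_erase hxm
  rw [he] at hp
  refine ⟨![x, u, v, w], ⟨⟨hp.nodup_iff.1 hm.1.nodup, fun y hy => hm.1.mem y (hp.mem_iff.2 hy),
    fun y hy y' hy' => hm.1.comm y (hp.mem_iff.2 hy) y' (hp.mem_iff.2 hy')⟩, rfl, ?_⟩, rfl⟩
  show [x, u, v, w].prod = z
  rw [← fac_perm_prod hm.1.comm hp]
  exact hm.2.2

/-- The action of the kernel on the members of a factorisation. -/
theorem exists_keep_hom {f : Fin 4 → G} (hf : Q4 D z f) :
    ∃ θ : ↥(keep S) →* Perm (Fin 4), ∀ (k : ↥(keep S)) (i : Fin 4), cj (k : G) (f i) = f (θ k i) := by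
  have hex : ∀ (k : ↥(keep S)) (i : Fin 4), ∃ j, f j = cj (k : G) (f i) := fun k i =>
    hf.of_same S (k.2.2 _ (hf.inQ i))
  choose σ hσ using hex
  have hinj : ∀ k, Function.Injective (σ k) := fun k i j h =>
    hf.inj (cj_injective (k : G) (by rw [← hσ, ← hσ, h]))
  refine ⟨MonoidHom.mk' (fun k => Equiv.ofBijective (σ k) ((hinj k).bijective_of_finite))
    fun k k' => Equiv.ext fun i => hf.inj ?_, fun k i => (hσ k i).symm⟩
  show f (σ (k * k') i) = f (σ k (σ k' i))
  rw [hσ, hσ, hσ, Subgroup.coe_mul, cj_mul]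

/-! ### The centraliser -/

/-- Transitivity on the members. -/
theorem move_q4 (P : M24Prim D) {f f' : Fin 4 → G} (hf : Q4 D z f) (hf' : Q4 D z f') :
    ∃ g : G, Commute g z ∧ ∀ i, cj g (f i) = f' i := by
  obtain ⟨g, hg⟩ := P.conj_lists hf.1 hf'.1 rfl (by simp)
  refine ⟨g, (cj_eq_self_iff g z).1 ?_, fun i => ?_⟩
  · conv_lhs => rw [← hf.2.2, cj_list_prod, hg]
    exact hf'.2.2
  · simp only [List.map_cons, List.map_nil, List.cons.injEq, and_true] at hg
    fin_cases i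
    exacts [hg.1, hg.2.1, hg.2.2.1, hg.2.2.2]

include S in
theorem move_point (P : M24Prim D) {x y : G} (hx : InQ D z x) (hy : InQ D z y) :
    ∃ g : G, Commute g z ∧ cj g x = y := by
  obtain ⟨f, hf, rfl⟩ := exists_q4 S hx
  obtain ⟨f', hf', rfl⟩ := exists_q4 S hy
  obtain ⟨g, hg, h⟩ := move_q4 P hf hf'
  exact ⟨g, hg, h 0⟩

/-- The common centraliser of the members. -/
abbrev stab4 (f : Fin 4 → G) : Subgroup G :=
  (((⊤ : Subgroup G) ⊓ Subgroup.centralizer ({f 0} : Set G)) ⊓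
    Subgroup.centralizer ({f 1} : Set G)) ⊓ Subgroup.centralizer ({f 2} : Set G) ⊓
    Subgroup.centralizer ({f 3} : Set G)

theorem mem_stab4 {f : Fin 4 → G} {g : G} : g ∈ stab4 f ↔ ∀ i, cj g (f i) = f i := by
  simp only [stab4, Subgroup.mem_inf, Subgroup.mem_top, true_and,
    Subgroup.mem_centralizer_singleton_iff, cj_eq_self_iff]
  constructor
  · rintro ⟨⟨⟨h0, h1⟩, h2⟩, h3⟩ i
    fin_cases i
    exacts [h0, h1, h2, h3]
  · intro h
    exact ⟨⟨⟨h 0, h 1⟩, h 2⟩, h 3⟩

theorem stab4_commute {f : Fin 4 → G} (hf : Q4 D z f) {g : G} (hg : g ∈ stab4 f) : Commute g z := by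
  rw [← hf.2.2]
  refine Commute.list_prod_right _ g fun y hy => ?_
  obtain ⟨i, rfl⟩ := (mem_q4 f y).1 hy
  exact (cj_eq_self_iff g _).1 (mem_stab4.1 hg i)

theorem stab4_card (P : M24Prim D) {f : Fin 4 → G} (hf : Q4 D z f) :
    Nat.card ↥(stab4 f) = 106168320 := by
  have h : 306936 * (31671 * (3510 * (693 * Nat.card ↥(stab4 f)))) = Nat.card G := P.quad_stab hf.1
  rw [P.group_card] at h
  omega

include S in
/-- The order of the centraliser in terms of the number of members. -/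
theorem card_cz (P : M24Prim D) {f : Fin 4 → G} (hf : Q4 D z f) :
    Nat.card ↥(Subgroup.centralizer ({z} : Set G)) = {y | InQ D z y}.ncard * (3 * (2 * 106168320)) := by
  classical
  set C := Subgroup.centralizer ({z} : Set G) with hC
  have hc : ∀ {g}, g ∈ C → Commute g z := fun h => Subgroup.mem_centralizer_singleton_iff.1 h
  have inC : ∀ {g x : G}, cj g x = x → g ∈ Subgroup.centralizer ({x} : Set G) := fun hg =>
    Subgroup.mem_centralizer_singleton_iff.2 ((cj_eq_self_iff _ _).1 hg).eq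
  have fix : ∀ {g x : G}, g ∈ Subgroup.centralizer ({x} : Set G) → cj g x = x := fun hg =>
    (cj_eq_self_iff _ _).2 (Subgroup.mem_centralizer_singleton_iff.1 hg)
  have stay : ∀ {g : G}, g ∈ C → cj g (f 0) = f 0 → ∀ i, ∃ j, f j = cj g (f i) := fun {g} hg h i => by
    have := S.same_cj (hc hg) (hf.same 0 i)
    rw [h] at this
    exact hf.of_same S this
  have perm : ∀ σ : Perm (Fin 4), ∃ g ∈ C, ∀ i, cj g (f i) = f (σ i) := fun σ => by
    obtain ⟨g, hg, h⟩ := move_q4 P hf (hf.comp σ)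
    exact ⟨g, Subgroup.mem_centralizer_singleton_iff.2 hg.eq, h⟩
  have f1 := orbit_eq C (f 0) (S := {y | InQ D z y}) (fun g hg => S.inQ_cj (hc hg) (hf.inQ 0))
    fun w hw => by
      obtain ⟨g, hg, h⟩ := move_point S P (hf.inQ 0) hw
      exact ⟨g, Subgroup.mem_centralizer_singleton_iff.2 hg.eq, h⟩
  have f2 := orbit_eq (C ⊓ Subgroup.centralizer ({f 0} : Set G)) (f 1) (S := {f 1, f 2, f 3})
    (fun g hg => by
      obtain ⟨j, hj⟩ := stay hg.1 (fix hg.2) 1
      rw [← hj]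
      fin_cases j
      · exact absurd (hf.inj (cj_injective g ((fix hg.2).trans hj))) (by decide)
      all_goals simp)
    fun w hw => by
      simp only [Set.mem_insert_iff, Set.mem_singleton_iff] at hw
      obtain ⟨j, hj, rfl⟩ : ∃ j : Fin 4, j ≠ 0 ∧ f j = w := by
        rcases hw with rfl | rfl | rfl
        exacts [⟨1, by decide, rfl⟩, ⟨2, by decide, rfl⟩, ⟨3, by decide, rfl⟩]
      obtain ⟨σ, h0, h1⟩ := four_swap_reps 0 j hj.symm
      obtain ⟨g, hg, h⟩ := perm σ
      exact ⟨g, ⟨hg, inC (by rw [h, h0])⟩, by rw [h, h1]⟩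
  have f3 := orbit_eq (C ⊓ Subgroup.centralizer ({f 0} : Set G) ⊓ Subgroup.centralizer ({f 1} : Set G))
    (f 2) (S := {f 2, f 3}) (fun g hg => by
      obtain ⟨j, hj⟩ := stay hg.1.1 (fix hg.1.2) 2
      rw [← hj]
      fin_cases j
      · exact absurd (hf.inj (cj_injective g ((fix hg.1.2).trans hj))) (by decide)
      · exact absurd (hf.inj (cj_injective g ((fix hg.2).trans hj))) (by decide)
      all_goals simp)
    fun w hw => by
      simp only [Set.mem_insert_iff, Set.mem_singleton_iff] at hw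
      obtain ⟨σ, h0, h1, h2⟩ : ∃ σ : Perm (Fin 4), σ 0 = 0 ∧ σ 1 = 1 ∧ f (σ 2) = w := by
        rcases hw with rfl | rfl
        exacts [⟨1, rfl, rfl, rfl⟩, ⟨swap 2 3, by decide, by decide, by
          rw [Equiv.swap_apply_left]⟩]
      obtain ⟨g, hg, h⟩ := perm σ
      exact ⟨g, ⟨⟨hg, inC (by rw [h, h0])⟩, inC (by rw [h, h1])⟩, by rw [h, h2]⟩
  have hlast : C ⊓ Subgroup.centralizer ({f 0} : Set G) ⊓ Subgroup.centralizer ({f 1} : Set G) ⊓
      Subgroup.centralizer ({f 2} : Set G) = stab4 f := by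
    refine le_antisymm (fun g hg => mem_stab4.2 ?_) fun g hg => ?_
    · have e : ∀ i : Fin 4, i ≠ 3 → cj g (f i) = f i := by
        intro i hi
        fin_cases i
        exacts [fix hg.1.1.2, fix hg.1.2, fix hg.2, absurd rfl hi]
      intro i
      by_cases hi : i = 3
      · subst hi
        obtain ⟨j, hj⟩ := stay hg.1.1.1 (fix hg.1.1.2) 3
        by_cases hj3 : j = 3
        · rw [← hj, hj3]
        · exact absurd (hf.inj (cj_injective g ((e j hj3).trans hj))) hj3
      · exact e i hi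
    · exact ⟨⟨⟨Subgroup.mem_centralizer_singleton_iff.2 (stab4_commute hf hg).eq, hg.1.1.1.2⟩,
        hg.1.1.2⟩, hg.1.2⟩
  have ne : ∀ {i j : Fin 4}, i ≠ j → f i ≠ f j := fun h e => h (hf.inj e)
  rw [hlast, Set.ncard_pair (ne (by decide)), stab4_card P hf] at f3
  rw [Set.ncard_eq_three.2 ⟨_, _, _, ne (by decide), ne (by decide), ne (by decide), rfl⟩, ← f3] at f2
  rw [← f2] at f1
  exact f1.symm

include S in
theorem ncard_inQ {ψ : G → ℕ} (hψ : Chart D z ψ) : {y | InQ D z y}.ncard = 504 := by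
  classical
  have := Fintype.ofFinite G
  rw [← show (Finset.univ.filter fun y => InQ D z y).card = {y | InQ D z y}.ncard by
    rw [← Set.ncard_coe_finset]; simp,
    Finset.card_eq_sum_card_fiberwise (f := ψ) (t := Finset.range 126)
      fun y hy => Finset.mem_range.2 (hψ.lt y (Finset.mem_filter.1 hy).2),
    Finset.sum_congr rfl fun k hk => (?_ : _ = 4), Finset.sum_const, Finset.card_range, smul_eq_mul]
  obtain ⟨x, hx, rfl⟩ := hψ.surj k (Finset.mem_range.1 hk)
  obtain ⟨m, hm, hxm⟩ := S.cover x hx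
  refine (congrArg Finset.card ?_).trans ((List.toFinset_card_of_nodup hm.1.nodup).trans hm.2.1)
  ext y
  simp only [Finset.mem_filter, Finset.mem_univ, true_and, List.mem_toFinset]
  constructor
  · rintro ⟨hy, e⟩
    exact quad_mem S hm hxm ((hψ.same x y hx hy).2 e.symm)
  · intro hy
    have h : Same D z x y := ⟨m, hm, hxm, hy⟩
    exact ⟨h.right, ((hψ.same x y hx h.right).1 h).symm⟩

end Cfsg.Agent.TTLink.Quad.Grp
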