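import Cfsg.Agent.TTLink.QuadGrp.Core
import Cfsg.Agent.TTLink.M24NotPerfect

/-!
The products of two members of one factorisation generate the extraspecial core.
-/

set_option autoImplicit false

namespace Cfsg.Agent.TTLink.Quad.Grp

open Cfsg.Agent.ThreeTransp45 Cfsg.Agent.SporB Equiv

universe u

variable {G : Type u} [Group G] [Finite G] {D : Set G} {z : G}

/-- The group generated by the products of two members of one factorisation. -/
def pairs (D : Set G) (z : G) : Subgroup G :=
  Subgroup.closure {t | ∃ x u, Same D z x u ∧ t = x * u}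

variable (U : Setup D z)

theorem pair_mem_pairs {x u : G} (h : Same D z x u) : x * u ∈ pairs D z :=
  Subgroup.subset_closure ⟨x, u, h, rfl⟩

include U

theorem Setup.pair_sq {x u : G} (h : Same D z x u) : x * u * (x * u) = 1 := by
  have hc := h.commute
  rw [mul_assoc, ← mul_assoc u, ← hc.eq, mul_assoc x u, ← mul_assoc, U.S.data.mul_self h.left.1,
    one_mul, U.S.data.mul_self h.right.1]

theorem Setup.pairs_le_core : pairs D z ≤ U.core := (Subgroup.closure_le _).2 fun t ⟨x, u, h, e⟩ =>
  U.mem_core.2 ⟨e ▸ pair_keep U.S h, 1, by rw [e, pow_one, pow_two, U.pair_sq h]⟩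

theorem Setup.pairs_le_commutator : pairs D z ≤ commutator G := by
  obtain ⟨-, hpar⟩ := U.P.parity'
  refine (Subgroup.closure_le _).2 ?_
  rintro _ ⟨x, u, h, rfl⟩
  exact (U.P.mem_commutator_or h.right.1 x).resolve_left (hpar x h.left.1)

theorem Setup.z_mem_pairs : z ∈ pairs D z := by
  have e := U.hf.2.2
  rw [List.prod_cons, List.prod_cons, List.prod_cons, List.prod_cons, List.prod_nil, mul_one,
    ← mul_assoc] at e
  have h := mul_mem (pair_mem_pairs (U.hf.same 0 1)) (pair_mem_pairs (U.hf.same 2 3))
  exact (congrArg (· ∈ pairs D z) e).mp h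

theorem Setup.zz : z * z = 1 := by
  have h := fac_inv U.P.data U.hf.1
  rw [U.hf.2.2] at h
  nth_rewrite 1 [← h]
  exact inv_mul_cancel z

theorem Setup.z_ne_one : z ≠ 1 := fun e =>
  U.P.indeps 4 (by norm_num) (by norm_num) _ U.hf.1.nodup rfl U.hf.1.mem U.hf.1.comm
    (U.hf.2.2.trans e)

/-- Fixing all products of two members means fixing all members. -/
theorem Setup.fix_of_pairs {g : G} (hg : Commute g z)
    (h : ∀ x u, Same D z x u → Commute g (x * u)) : ∀ y, InQ D z y → cj g y = y := by
  intro y hy
  obtain ⟨f, hf, rfl⟩ := exists_q4 U.S hy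
  have hD := U.P.data
  have key : ∀ j : Fin 4, j ≠ 0 → cj g (f 0) = f 0 ∨ cj g (f 0) = f j := fun j hj => by
    have hne : f 0 ≠ f j := fun e => hj (hf.inj e).symm
    have hF : Fac D [f 0, f j] := ⟨by simp [hne], by simp [(hf.inQ 0).1, (hf.inQ j).1],
      by simp [(hf.same 0 j).commute, (hf.same j 0).commute]⟩
    have := (factors_unique hD 2 (by norm_num) (fun k k1 k2 => U.P.indeps (2 * k) (by omega) (by omega))
      _ _ (fac_map hD g hF) hF rfl rfl (by
        rw [← cj_list_prod]
        simpa using (cj_eq_self_iff g _).2 (h _ _ (hf.same 0 j))) (cj g (f 0))).1 (by simp)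
    simpa using this
  rcases key 1 (by decide) with e | e
  · exact e
  rcases key 2 (by decide) with e' | e'
  · exact e'
  · exact absurd (hf.inj (e.symm.trans e')) (by decide)

theorem Setup.core_pair {g x u : G} (hg : g ∈ U.core) (h : Same D z x u) :
    cj g (x * u) = x * u ∨ cj g (x * u) = z * (x * u) := by
  classical
  have hgz : Commute g z := (U.core_le hg).1
  obtain ⟨h2, hfix⟩ := U.core_act hg h.left
  by_cases hxu : x = u
  · left; rw [hxu, U.S.data.mul_self h.right.1, cj, mul_one, mul_inv_cancel]
  rw [cj_map_mul]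
  by_cases ex : cj g x = x
  · left; rw [ex, hfix ex u h]
  by_cases ey : cj g x = u
  · left; rw [ey, show cj g u = x by rw [← ey, h2], h.commute.eq]
  right
  obtain ⟨m, hm, hxm, hum⟩ := h
  have hxq : InQ D z x := Same.left ⟨m, hm, hxm, hum⟩
  have huq : InQ D z u := Same.right ⟨m, hm, hxm, hum⟩
  set v := cj g x with hv
  set w := cj g u with hw
  have hvm : v ∈ m := quad_mem U.S hm hxm ((U.core_le hg).2 x hxq)
  have hwm : w ∈ m := quad_mem U.S hm hum ((U.core_le hg).2 u huq)
  obtain ⟨h2u, hfixu⟩ := U.core_act hg huq
  have wu : w ≠ u := fun e => ex (hfixu e x ⟨m, hm, hum, hxm⟩)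
  have wv : w ≠ v := fun e => hxu (cj_injective g e).symm
  have wx : w ≠ x := fun e => ey (by
    have e' := congrArg (cj g) e
    rw [hw, h2u] at e'
    rw [hv, e'])
  have hn : [x, u, v, w].Nodup := by simp [hxu, Ne.symm ex, wx.symm, Ne.symm ey, wu.symm, wv.symm]
  have hperm : [x, u, v, w].Perm m := by
    refine (List.subperm_of_subset hn ?_).perm_of_length_le (by rw [hm.2.1]; simp)
    intro a ha
    simp only [List.mem_cons, List.not_mem_nil, or_false] at ha
    rcases ha with rfl | rfl | rfl | rfl <;> assumption
  have hp := fac_perm_prod (fun a ha b hb => hm.1.comm a (hperm.mem_iff.1 ha) b (hperm.mem_iff.1 hb)) hperm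
  rw [hm.2.2] at hp
  simp only [List.prod_cons, List.prod_nil, mul_one] at hp
  have hsq := U.pair_sq (x := x) (u := u) ⟨m, hm, hxm, hum⟩
  have e : v * w = x * u * z := by
    rw [← hp, show x * u * (x * (u * (v * w))) = x * u * (x * u) * (v * w) by simp only [mul_assoc],
      hsq, one_mul]
  rw [e]
  exact ((hxq.2.mul_right huq.2).eq).symm

/-- The core acts on the group of pairs through the product. -/
theorem Setup.core_pairs {g t : G} (hg : g ∈ U.core) (ht : t ∈ pairs D z) :
    cj g t = t ∨ cj g t = z * t := by
  have hzc : ∀ {t}, t ∈ pairs D z → Commute z t := fun ht => (U.core_le (U.pairs_le_core ht)).1.symm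
  induction ht using Subgroup.closure_induction with
  | mem t ht => obtain ⟨x, u, h, rfl⟩ := ht; exact U.core_pair hg h
  | one => left; simp [cj]
  | mul a b ha hb iha ihb =>
    rw [cj_map_mul]
    rcases iha with ea | ea <;> rcases ihb with eb | eb <;> rw [ea, eb]
    · exact Or.inl rfl
    · right; rw [← mul_assoc, ← (hzc ha).eq, mul_assoc]
    · right; rw [mul_assoc]
    · left
      rw [show z * a * (z * b) = z * (a * z) * b by simp only [mul_assoc], ← (hzc ha).eq,
        ← mul_assoc z z a, U.zz, one_mul]
  | inv a ha iha =>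
    rw [cj_map_inv]
    rcases iha with ea | ea <;> rw [ea]
    · exact Or.inl rfl
    · right; rw [mul_inv_rev, inv_eq_of_mul_eq_one_right U.zz, ((hzc ha).inv_right).eq]

omit U in
/-- A small generating set through a given element. -/
theorem small_gen {H : Type*} [Group H] [Finite H] {z : H} (hz : 2 ≤ orderOf z) [DecidableEq H] (T : Finset H) :
    ∃ s ⊆ T, Subgroup.closure (insert z (s : Set H)) = Subgroup.closure (insert z (T : Set H)) ∧
      2 * 2 ^ s.card ≤ Nat.card ↥(Subgroup.closure (insert z (s : Set H))) := by
  induction T using Finset.induction_on with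
  | empty =>
    refine ⟨∅, subset_rfl, rfl, ?_⟩
    simp only [Finset.coe_empty, insert_empty_eq, Finset.card_empty, pow_zero, mul_one]
    rw [← Subgroup.zpowers_eq_closure, Nat.card_zpowers]
    exact hz
  | @insert x T hx ih =>
    obtain ⟨s, hs, he, hc⟩ := ih
    have e2 : ∀ A : Finset H, Subgroup.closure (insert z ((insert x A : Finset H) : Set H)) =
        Subgroup.closure (insert z (A : Set H)) ⊔ Subgroup.closure {x} := fun A => by
      rw [← Subgroup.closure_union, Finset.coe_insert]
      congr 1
      ext a
      simp only [Set.mem_insert_iff, Set.mem_union, Set.mem_singleton_iff]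
      tauto
    by_cases hm : x ∈ Subgroup.closure (insert z (s : Set H))
    · refine ⟨s, hs.trans (Finset.subset_insert _ _), ?_, hc⟩
      rw [e2, ← he, sup_eq_left.2 ((Subgroup.closure_le _).2 (Set.singleton_subset_iff.2 hm))]
    · refine ⟨insert x s, Finset.insert_subset_insert _ hs, by rw [e2, e2, he], ?_⟩
      set A := Subgroup.closure (insert z (s : Set H))
      set B := Subgroup.closure (insert z ((insert x s : Finset H) : Set H)) with hB
      have hle : A ≤ B := by rw [hB, e2]; exact le_sup_left
      have hxB : x ∈ B := Subgroup.subset_closure (by simp)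
      have hlt : Nat.card A < Nat.card B := by
        by_contra hh
        exact hm (Subgroup.eq_of_le_of_card_ge hle (le_of_not_gt hh) ▸ hxB)
      obtain ⟨k, hk⟩ := Subgroup.card_dvd_of_le hle
      have hk2 : 2 ≤ k := by
        rcases k with _ | _ | k
        · rw [mul_zero] at hk; omega
        · rw [zero_add, mul_one] at hk; omega
        · omega
      have h' := Nat.mul_le_mul hc hk2
      rw [← hk] at h'
      refine le_trans (le_of_eq ?_) h'
      rw [Finset.card_insert_of_notMem fun h => hm (Subgroup.subset_closure (Set.mem_insert_of_mem _ h)), pow_succ]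
      ring

theorem Setup.pairs_eq_core : pairs D z = U.core := by
  classical
  have := Fintype.ofFinite G
  refine Subgroup.eq_of_le_of_card_ge U.pairs_le_core ?_
  have hz2 : 2 ≤ orderOf z := by
    rw [orderOf_eq_prime (p := 2) (by rw [pow_two, U.zz]) U.z_ne_one]
  obtain ⟨s, hs, he, hc⟩ := small_gen hz2 (Finset.univ.filter fun t => t ∈ pairs D z)
  have hP : Subgroup.closure (insert z (s : Set G)) = pairs D z := by
    rw [he]
    refine le_antisymm ((Subgroup.closure_le _).2 ?_) fun t ht => Subgroup.subset_closure (by simp [ht])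
    rintro t (rfl | ht)
    · exact U.z_mem_pairs
    · simpa using ht
  rw [hP] at hc
  refine le_trans ?_ hc
  let Fn : G → (↥s → Bool) := fun g t => decide (Commute g (t : G))
  set Qf : Finset G := Finset.univ.filter fun g => g ∈ U.core
  have hQ : Qf.card = Nat.card U.core := by
    rw [Nat.card_eq_fintype_card, Fintype.card_subtype]
  rw [← hQ]
  refine (Finset.card_le_mul_card_image Qf 2 fun b hb => ?_ : Qf.card ≤ 2 * (Qf.image Fn).card).trans ?_
  · obtain ⟨g, hg, rfl⟩ := Finset.mem_image.1 hb
    refine le_trans (Finset.card_le_card (t := {g, g * z}) fun h hh => ?_) Finset.card_le_two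
    obtain ⟨hh, e⟩ := Finset.mem_filter.1 hh
    have hg' : g ∈ U.core := by simpa [Qf] using hg
    have hh' : h ∈ U.core := by simpa [Qf] using hh
    have hco : g⁻¹ * h ∈ U.core := mul_mem (inv_mem hg') hh'
    have hz' : Commute (g⁻¹ * h) z := (U.core_le hco).1
    have hall : ∀ t ∈ pairs D z, Commute (g⁻¹ * h) t := by
      intro t ht
      rw [← hP] at ht
      induction ht using Subgroup.closure_induction with
      | mem t ht =>
        rcases ht with rfl | ht
        · exact hz'
        · have htP : t ∈ pairs D z := by simpa using hs ht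
          have hiff : Commute h t ↔ Commute g t := by
            simpa [Fn] using congrFun e ⟨t, ht⟩
          have hEq : cj h t = cj g t := by
            by_cases hcg : Commute g t
            · rw [(cj_eq_self_iff g t).2 hcg, (cj_eq_self_iff h t).2 (hiff.2 hcg)]
            · rcases U.core_pairs hh' htP with a | a
              · exact absurd (hiff.1 ((cj_eq_self_iff h t).1 a)) hcg
              rcases U.core_pairs hg' htP with b | b
              · exact absurd ((cj_eq_self_iff g t).1 b) hcg
              rw [a, b]
          exact (cj_eq_self_iff _ _).1 (by rw [cj_mul, hEq, cj_inv_cj])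
      | one => exact Commute.one_right _
      | mul a b _ _ ha hb => exact ha.mul_right hb
      | inv a _ ha => exact ha.inv_right
    rcases U.fixed_le hz' (U.fix_of_pairs hz' fun x u hxu => hall _ (pair_mem_pairs hxu)) with e' | e'
    · simp [inv_mul_eq_one.1 e']
    · simp [inv_mul_eq_iff_eq_mul.1 e']
  · refine Nat.mul_le_mul_left 2 ((Finset.card_le_univ _).trans ?_)
    simp

theorem Setup.core_commutator : U.core ≤ commutator G :=
  U.pairs_eq_core ▸ U.pairs_le_commutator

theorem Setup.keep_commutator : keep U.S ≤ commutator G := by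
  intro g hg
  have hn : (U.core.subgroupOf (keep U.S)).Normal :=
    ⟨fun q hq k => U.core_conj k.2.1 hq⟩
  have hidx : (U.core.subgroupOf (keep U.S)).index = 3 := by
    have h := (U.core.subgroupOf (keep U.S)).card_mul_index
    rw [Nat.card_congr (Subgroup.subgroupOfEquivOfLe U.core_le).toEquiv, U.core_card, U.counts.1] at h
    omega
  have h3 : g ^ 3 ∈ commutator G := by
    have := (U.core.subgroupOf (keep U.S)).pow_index_mem ⟨g, hg⟩
    rw [hidx] at this
    exact U.core_commutator this
  have h2 : g * g ∈ commutator G := by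
    have hd := (U.hf.inQ 0).1
    have := Subgroup.mul_self_mem_of_index_two (show (commutator G).index = 2 from ?_) g
    · exact this
    obtain ⟨-, hpar⟩ := U.P.parity'
    refine Subgroup.index_eq_two_iff.2 ⟨U.f 0, fun x => ?_⟩
    rcases U.P.mem_commutator_or hd x with h | h
    · exact Or.inr ⟨h, fun h' => hpar _ hd ((Subgroup.mul_mem_cancel_left _ h).1 h')⟩
    · exact Or.inl ⟨h, fun h' => hpar _ hd ((Subgroup.mul_mem_cancel_left _ h').1 h)⟩
  rw [pow_succ, pow_two] at h3
  exact (Subgroup.mul_mem_cancel_left _ h2).1 h3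

end Cfsg.Agent.TTLink.Quad.Grp
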